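import Cfsg.Agent.H758.EPX.Sizes
import Cfsg.Agent.H414.EPV.AutPSU
import Cfsg.Agent.H470.EPO.OwnR1Fin
import Cfsg.Agent.ClassicalGeometry.PSL2Basic
import Cfsg.Agent.S0813

/-!
# S5745: orders of the small socles of rank one and of their automorphism groups (helper347)

`card_H_le` : `EPS H N e`, `N ≅ T` : `|H| ≤ |Aut T|`; `small_cases`.
-/

set_option autoImplicit false
set_option linter.unusedSectionVars false

namespace Cfsg.Agent.H347.EPX

open Cfsg Cfsg.Agent.H284 Cfsg.Agent.H209.EPX Cfsg.Agent.H758.EPX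

section eps

variable {G : Type} [Group G] {H N : Subgroup G} {T : Type} [Group T]

theorem card_H_le [Finite G] {e : N ≃* (Fin 1 → T)} (h : EPS H N e) : Nat.card H ≤ Nat.card (MulAut T) := by
  have h1 := EPS.card_H_le h
  simpa using h1

theorem card_H_dvd [Finite G] {e : N ≃* (Fin 1 → T)} (h : EPS H N e) : Nat.card H ∣ Nat.card (MulAut T) := by
  have h1 := EPS.card_H_dvd h
  simpa using h1

theorem card_N_eq (e : N ≃* (Fin 1 → T)) : Nat.card N = Nat.card T := by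
  rw [Nat.card_congr e.toEquiv, Nat.card_pi]
  simp

end eps

section cards

variable {T : Type} [Group T] {F : Type} [Field F] [Fintype F]

theorem mulAut_psl {p f : ℕ} (hp : p.Prime) (hf : 1 ≤ f) (hF : Fintype.card F = p ^ f) (h4 : 4 ≤ p ^ f)
    (e : T ≃* Matrix.ProjectiveSpecialLinearGroup (Fin 2) F) :
    Nat.card (MulAut T) = f * (p ^ f * ((p ^ f) ^ 2 - 1)) := by
  have := Fact.mk hp
  rw [Nat.card_congr (MulAut.congr e).toEquiv, Cfsg.Agent.S0813.result p f hf hF 2 le_rfl (fun _ => h4),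
    if_pos rfl, ClassicalGeometry.PSL2Basic.card_PGL2, hF, one_mul]

theorem card_psl (e : T ≃* Matrix.ProjectiveSpecialLinearGroup (Fin 2) F) :
    Nat.card T = Nat.card (Matrix.ProjectiveSpecialLinearGroup (Fin 2) F) := Nat.card_congr e.toEquiv

theorem card_four (hF : Fintype.card F = 4) (e : T ≃* Matrix.ProjectiveSpecialLinearGroup (Fin 2) F) :
    Nat.card T = 60 := by
  have h1 := ClassicalGeometry.PSL2Basic.card_PSL2_even (F := F) (by rw [hF]; decide)
  rw [hF] at h1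
  rw [card_psl e, h1]
  norm_num

theorem aut_four (hF : Fintype.card F = 4) (e : T ≃* Matrix.ProjectiveSpecialLinearGroup (Fin 2) F) :
    Nat.card (MulAut T) = 120 := by
  rw [mulAut_psl (p := 2) (f := 2) Nat.prime_two (by norm_num) (by rw [hF]; norm_num) (by norm_num) e]
  norm_num

theorem card_five (hF : Fintype.card F = 5) (e : T ≃* Matrix.ProjectiveSpecialLinearGroup (Fin 2) F) :
    Nat.card T = 60 := by
  have h1 := ClassicalGeometry.PSL2Basic.card_PSL2_odd (F := F) (by rw [hF]; decide)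
  rw [hF] at h1
  rw [card_psl e]
  norm_num at h1
  omega

theorem aut_five (hF : Fintype.card F = 5) (e : T ≃* Matrix.ProjectiveSpecialLinearGroup (Fin 2) F) :
    Nat.card (MulAut T) = 120 := by
  rw [mulAut_psl (p := 5) (f := 1) Nat.prime_five (by norm_num) (by rw [hF]; norm_num) (by norm_num) e]
  norm_num

theorem card_nine (hF : Fintype.card F = 9) (e : T ≃* Matrix.ProjectiveSpecialLinearGroup (Fin 2) F) :
    Nat.card T = 360 := by
  have h1 := ClassicalGeometry.PSL2Basic.card_PSL2_odd (F := F) (by rw [hF]; decide)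
  rw [hF] at h1
  rw [card_psl e]
  norm_num at h1
  omega

theorem aut_nine (hF : Fintype.card F = 9) (e : T ≃* Matrix.ProjectiveSpecialLinearGroup (Fin 2) F) :
    Nat.card (MulAut T) = 1440 := by
  rw [mulAut_psl (p := 3) (f := 2) Nat.prime_three (by norm_num) (by rw [hF]; norm_num) (by norm_num) e]
  norm_num

theorem card_u33 (hF : Fintype.card F = 3 ^ 2) (e : T ≃* PSU 3 F 3) : Nat.card T = 6048 := by
  have h := S0280.result hF 3 (by norm_num)
  have e1 : 3 ^ (3 * (3 - 1) / 2) * ∏ i ∈ Finset.range 3, (if Even i then 3 ^ (i + 1) + 1 else 3 ^ (i + 1) - 1) =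
    4 * 6048 := by decide +kernel
  have e2 : Nat.gcd 3 (3 + 1) = 1 := by norm_num
  rw [e1, e2] at h
  rw [Nat.card_congr e.toEquiv]
  omega

theorem aut_u33 (hF : Fintype.card F = 3 ^ 2) (e : T ≃* PSU 3 F 3) : Nat.card (MulAut T) = 12096 := by
  rw [Nat.card_congr (MulAut.congr e).toEquiv, H414.EPV.aut33 hF]

theorem card_u35 (hF : Fintype.card F = 5 ^ 2) (e : T ≃* PSU 3 F 5) : Nat.card T = 126000 := by
  have h := S0280.result hF 3 (by norm_num)
  have e1 : 5 ^ (3 * (3 - 1) / 2) * ∏ i ∈ Finset.range 3, (if Even i then 5 ^ (i + 1) + 1 else 5 ^ (i + 1) - 1) =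
    18 * 126000 := by decide +kernel
  have e2 : Nat.gcd 3 (5 + 1) = 3 := by norm_num
  rw [e1, e2] at h
  rw [Nat.card_congr e.toEquiv]
  omega

theorem aut_u35 (hF : Fintype.card F = 5 ^ 2) (e : T ≃* PSU 3 F 5) : Nat.card (MulAut T) = 756000 := by
  rw [Nat.card_congr (MulAut.congr e).toEquiv, H414.EPV.aut35 hF]

end cards

/-- the prime of a field of order `r ^ n` -/
theorem eq_of_card {p r n : ℕ} [Fact p.Prime] (hr : r.Prime) {F : Type} [Field F] [Fintype F] [CharP F p]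
    (hF : Fintype.card F = r ^ n) : p = r := by
  obtain ⟨m, hpp, hc⟩ := FiniteField.card F p
  rw [hF] at hc
  have h1 : p ∣ r ^ n := by
    rw [hc]
    exact dvd_pow_self p m.ne_zero
  exact (Nat.prime_dvd_prime_iff_eq hpp hr).1 (hpp.dvd_of_dvd_pow h1)

/-- the five small socles -/
theorem small_cases {p : ℕ} [Fact p.Prime] {T : Type} [Group T] (h : H470.EPO.SmallR1 p T) :
    (p = 2 ∧ Nat.card T = 60 ∧ Nat.card (MulAut T) = 120 ∧ ∃ (F : Type) (_ : Field F) (_ : Fintype F),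
      Fintype.card F = 4 ∧ Nonempty (T ≃* Matrix.ProjectiveSpecialLinearGroup (Fin 2) F)) ∨
    (p = 5 ∧ Nat.card T = 60 ∧ Nat.card (MulAut T) = 120 ∧ ∃ (F : Type) (_ : Field F) (_ : Fintype F),
      Fintype.card F = 5 ∧ Nonempty (T ≃* Matrix.ProjectiveSpecialLinearGroup (Fin 2) F)) ∨
    (p = 3 ∧ Nat.card T = 360 ∧ Nat.card (MulAut T) = 1440 ∧ ∃ (F : Type) (_ : Field F) (_ : Fintype F),
      Fintype.card F = 9 ∧ Nonempty (T ≃* Matrix.ProjectiveSpecialLinearGroup (Fin 2) F)) ∨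
    (p = 3 ∧ Nat.card T = 6048 ∧ Nat.card (MulAut T) = 12096 ∧ ∃ (F : Type) (_ : Field F) (_ : Fintype F),
      Fintype.card F = 3 ^ 2 ∧ Nonempty (T ≃* PSU 3 F 3)) ∨
    (p = 5 ∧ Nat.card T = 126000 ∧ Nat.card (MulAut T) = 756000 ∧ ∃ (F : Type) (_ : Field F) (_ : Fintype F),
      Fintype.card F = 5 ^ 2 ∧ Nonempty (T ≃* PSU 3 F 5)) := by
  rcases h with ⟨F, i1, i2, i3, hF | hF | hF, ⟨e⟩⟩ | ⟨F, i1, i2, i3, q, hF, rfl | rfl, ⟨e⟩⟩
  · exact Or.inl ⟨eq_of_card (r := 2) (n := 2) Nat.prime_two (by rw [hF]; norm_num), card_four hF e, aut_four hF e,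
      F, i1, i2, hF, ⟨e⟩⟩
  · exact Or.inr (Or.inl ⟨eq_of_card (r := 5) (n := 1) Nat.prime_five (by rw [hF]; norm_num), card_five hF e,
      aut_five hF e, F, i1, i2, hF, ⟨e⟩⟩)
  · exact Or.inr (Or.inr (Or.inl ⟨eq_of_card (r := 3) (n := 2) Nat.prime_three (by rw [hF]; norm_num),
      card_nine hF e, aut_nine hF e, F, i1, i2, hF, ⟨e⟩⟩))
  · exact Or.inr (Or.inr (Or.inr (Or.inl ⟨eq_of_card (r := 3) (n := 2) Nat.prime_three hF, card_u33 hF e,
      aut_u33 hF e, F, i1, i2, hF, ⟨e⟩⟩)))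
  · exact Or.inr (Or.inr (Or.inr (Or.inr ⟨eq_of_card (r := 5) (n := 2) Nat.prime_five hF, card_u35 hF e,
      aut_u35 hF e, F, i1, i2, hF, ⟨e⟩⟩)))

end Cfsg.Agent.H347.EPX
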